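import Cfsg.Agent.Lib.MathieuBlock.Reduce
import Cfsg.Agent.Lib.Blocks.Central

/-!
# Abstract lemmas: local structure and class sum relations
-/

set_option autoImplicit false

namespace Cfsg.Agent.Lib.MathieuBlock.Abstract

open Cfsg
open Cfsg.Agent.Lib.Blocks.Central

/-! ### Groups with a self-centralizing normal `2`-subgroup -/

theorem cores_of_normal {C : Type*} [Group C] [Finite C] (Q : Subgroup C) [hn : Q.Normal]
    (hQ : IsPGroup 2 Q) (hc : Subgroup.centralizer (Q : Set C) ≤ Q) :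
    pPrimeCore 2 C = ⊥ ∧ Subgroup.centralizer ((pCore 2 C : Subgroup C) : Set C) ≤ pCore 2 C := by
  have hle : Q ≤ pCore 2 C := le_sSup ⟨hn, hQ⟩
  refine ⟨?_, ?_⟩
  · rw [pPrimeCore, sSup_eq_bot]
    rintro N ⟨hN, hcop⟩
    have : N.Normal := hN
    have hint : ∀ x, x ∈ N → x ∈ Q → x = 1 := by
      intro x hxN hxQ
      have h1 : (N ⊓ Q) = ⊥ := by
        apply disjoint_iff.1
        apply Subgroup.disjoint_of_coprime_natCard
        obtain ⟨k, hk⟩ := IsPGroup.iff_card.mp hQ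
        rw [hk]
        exact Nat.Coprime.pow_right _ hcop
      have h2 : x ∈ N ⊓ Q := ⟨hxN, hxQ⟩
      rw [h1] at h2
      exact h2
    have hcen : N ≤ Subgroup.centralizer (Q : Set C) := by
      intro n hn' 
      rw [Subgroup.mem_centralizer_iff]
      intro q hq
      have h1 : q * n * q⁻¹ * n⁻¹ = 1 := by
        apply hint
        · exact N.mul_mem (hN.conj_mem n hn' q) (N.inv_mem hn')
        · have h2 : n * q⁻¹ * n⁻¹ ∈ Q := by
            have := Subgroup.Normal.conj_mem (inferInstance : Q.Normal) q⁻¹ (Q.inv_mem hq) n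
            exact this
          have h3 : q * n * q⁻¹ * n⁻¹ = q * (n * q⁻¹ * n⁻¹) := by group
          rw [h3]
          exact Q.mul_mem hq h2
      have h2 : q * n * q⁻¹ = n := by
        rwa [mul_inv_eq_one] at h1
      rwa [mul_inv_eq_iff_eq_mul] at h2
    rw [eq_bot_iff]
    intro x hx
    exact hint x hx (hc (hcen hx))
  · calc Subgroup.centralizer ((pCore 2 C : Subgroup C) : Set C)
        ≤ Subgroup.centralizer (Q : Set C) := Subgroup.centralizer_le hle
      _ ≤ Q := hc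
      _ ≤ pCore 2 C := hle

/-- The local property of `y` in `G`, with witness `Q₀`. -/
structure LocalProp {Γ : Type*} [Group Γ] (G : Subgroup Γ) (y : Γ) (Q₀ : Subgroup Γ) : Prop where
  le : Q₀ ≤ G
  comm : ∀ q ∈ Q₀, q * y = y * q
  pgroup : IsPGroup 2 Q₀
  norm : ∀ c ∈ G, c * y = y * c → ∀ q ∈ Q₀, c * q * c⁻¹ ∈ Q₀
  cent : ∀ c ∈ G, c * y = y * c → (∀ q ∈ Q₀, c * q = q * c) → c ∈ Q₀

theorem LocalProp.conj {Γ : Type*} [Group Γ] {G : Subgroup Γ} {y : Γ} {Q₀ : Subgroup Γ}
    (h : LocalProp G y Q₀) {u : Γ} (hu : u ∈ G) :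
    LocalProp G (u * y * u⁻¹) (Q₀.map (MulAut.conj u).toMonoidHom) := by
  have mem : ∀ q, q ∈ Q₀.map (MulAut.conj u).toMonoidHom ↔ u⁻¹ * q * u ∈ Q₀ := by
    intro q
    constructor
    · rintro ⟨r, hr, rfl⟩
      have : u⁻¹ * ((MulAut.conj u).toMonoidHom r) * u = r := by
        simp [MulAut.conj_apply, mul_assoc]
      rwa [this]
    · intro hq
      refine ⟨_, hq, ?_⟩
      simp [MulAut.conj_apply, mul_assoc]
  refine ⟨?_, ?_, ?_, ?_, ?_⟩
  · rintro _ ⟨r, hr, rfl⟩
    have : (MulAut.conj u).toMonoidHom r = u * r * u⁻¹ := rfl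
    rw [this]
    exact G.mul_mem (G.mul_mem hu (h.le hr)) (G.inv_mem hu)
  · intro q hq
    have h1 := h.comm _ ((mem q).1 hq)
    have e1 : q * (u * y * u⁻¹) = u * ((u⁻¹ * q * u) * y) * u⁻¹ := by group
    have e2 : u * y * u⁻¹ * q = u * (y * (u⁻¹ * q * u)) * u⁻¹ := by group
    rw [e1, e2, h1]
  · exact h.pgroup.map _
  · intro c hc hcy q hq
    rw [mem]
    have hc' : u⁻¹ * c * u ∈ G := G.mul_mem (G.mul_mem (G.inv_mem hu) hc) hu
    have hcy' : (u⁻¹ * c * u) * y = y * (u⁻¹ * c * u) := by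
      have e1 : (u⁻¹ * c * u) * y = u⁻¹ * (c * (u * y * u⁻¹)) * u := by group
      have e2 : y * (u⁻¹ * c * u) = u⁻¹ * ((u * y * u⁻¹) * c) * u := by group
      rw [e1, e2, hcy]
    have := h.norm _ hc' hcy' _ ((mem q).1 hq)
    have e : u⁻¹ * (c * q * c⁻¹) * u = (u⁻¹ * c * u) * (u⁻¹ * q * u) * (u⁻¹ * c * u)⁻¹ := by group
    rw [e]
    exact this
  · intro c hc hcy hcq
    rw [mem]
    have hc' : u⁻¹ * c * u ∈ G := G.mul_mem (G.mul_mem (G.inv_mem hu) hc) hu
    have hcy' : (u⁻¹ * c * u) * y = y * (u⁻¹ * c * u) := by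
      have e1 : (u⁻¹ * c * u) * y = u⁻¹ * (c * (u * y * u⁻¹)) * u := by group
      have e2 : y * (u⁻¹ * c * u) = u⁻¹ * ((u * y * u⁻¹) * c) * u := by group
      rw [e1, e2, hcy]
    apply h.cent _ hc' hcy'
    intro q hq
    have h1 : u * q * u⁻¹ ∈ Q₀.map (MulAut.conj u).toMonoidHom := by
      rw [mem]
      simpa [mul_assoc] using hq
    have h2 := hcq _ h1
    have e1 : (u⁻¹ * c * u) * q = u⁻¹ * (c * (u * q * u⁻¹)) * u := by group
    have e2 : q * (u⁻¹ * c * u) = u⁻¹ * ((u * q * u⁻¹) * c) * u := by group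
    rw [e1, e2, h2]

/-- The local property gives a single block for the centralizer. -/
theorem single_block {Γ : Type*} [Group Γ] {G : Subgroup Γ} [Finite G] {y : G} {Q₀ : Subgroup Γ}
    (h : LocalProp G (y : Γ) Q₀) {M : Ideal AlgInt} (hM : IsPModular 2 M)
    (χ ψ : IrrCharacter ↥(Subgroup.centralizer ({y} : Set G))) :
    SameBlock M (χ : ↥(Subgroup.centralizer ({y} : Set G)) → ℂ)
      (ψ : ↥(Subgroup.centralizer ({y} : Set G)) → ℂ) := by
  let C := Subgroup.centralizer ({y} : Set G)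
  have memC : ∀ c : G, c ∈ C ↔ (c : Γ) * y = y * c := by
    intro c
    rw [Subgroup.mem_centralizer_singleton_iff]
    constructor
    · intro hc
      exact congrArg Subtype.val hc
    · intro hc
      exact Subtype.ext hc
  let ι : C →* Γ := G.subtype.comp C.subtype
  let Q : Subgroup C := Q₀.comap ι
  have hQn : Q.Normal := by
    constructor
    intro n hn c
    show ι (c * n * c⁻¹) ∈ Q₀
    have : ι (c * n * c⁻¹) = ι c * ι n * (ι c)⁻¹ := by simp
    rw [this]
    exact h.norm _ c.1.2 ((memC c.1).1 c.2) _ hn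
  have hinj : Function.Injective ι := by
    intro a b hab
    exact Subtype.ext (Subtype.ext hab)
  have hQp : IsPGroup 2 Q := h.pgroup.comap_of_injective ι hinj
  have hQc : Subgroup.centralizer (Q : Set C) ≤ Q := by
    intro c hc
    show ι c ∈ Q₀
    apply h.cent _ c.1.2 ((memC c.1).1 c.2)
    intro q hq
    have hqG : q ∈ G := h.le hq
    have hqC : (⟨q, hqG⟩ : G) ∈ C := (memC _).2 (h.comm q hq)
    have hqQ : (⟨⟨q, hqG⟩, hqC⟩ : C) ∈ Q := hq
    have := (Subgroup.mem_centralizer_iff.1 hc) _ hqQ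
    have h2 : ι (⟨⟨q, hqG⟩, hqC⟩ * c) = ι (c * ⟨⟨q, hqG⟩, hqC⟩) := congrArg ι this
    simp only [map_mul] at h2
    exact h2.symm
  obtain ⟨h1, h2⟩ := cores_of_normal Q hQp hQc
  exact Cfsg.Agent.S4487.result (G := C) 2 M hM h1 h2 χ ψ

/-! ### Class sums -/

variable {G : Type*} [Group G] [Fintype G]

/-- If `χ t = 0`, the sum of `χ (x * r)` over the class of `t` vanishes. -/
theorem sum_class_mul_eq_zero [DecidableEq G] (χ : IrrCharacter G) {t : G} (ht : (χ : G → ℂ) t = 0) (r : G) :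
    ∑ x : G, (if IsConj t x then (χ : G → ℂ) (x * r) else 0) = 0 := by
  classical
  have h1 := lin_central_mul χ.2 (isCentral_of_mem (classSum t))
    (MonoidAlgebra.single r (1 : ℂ))
  have h2 : omega (χ : G → ℂ) (classSum t : GA G) = 0 := by
    rw [omega, lin_classSum (Cfsg.Agent.Lib.Char.Basic.isClassFunction_of_isIrrCharacter χ.2), ht]
    simp
  rw [h2, zero_mul] at h1
  refine Eq.trans ?_ h1
  rw [lin_mul]
  refine Fintype.sum_congr _ _ fun h => ?_
  have h3 : ∑ k : G, ((classSum t : Subalgebra.center ℂ (GA G)) : GA G).coeff h *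
      (MonoidAlgebra.single r (1 : ℂ)).coeff k * (χ : G → ℂ) (h * k) =
      ((classSum t : Subalgebra.center ℂ (GA G)) : GA G).coeff h * (χ : G → ℂ) (h * r) := by
    apply (Finset.sum_eq_single r _ _).trans
    · simp
    · intro k _ hk
      have : (MonoidAlgebra.single r (1 : ℂ)).coeff k = 0 := by
        simp [MonoidAlgebra.coeff_single, hk.symm]
      rw [this]
      simp
    · simp
  rw [h3, coeff_classSum]
  split_ifs
  · simp
  · simp

end Cfsg.Agent.Lib.MathieuBlock.Abstract
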