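import Cfsg.Agent.Lib.MathieuBlock.Row

/-!
# Conjugacy classes of involutions and their centralizers: certificates
-/

set_option autoImplicit false

namespace Cfsg.Agent.Lib.MathieuBlock.Class

open Cfsg Cfsg.Agent.Lib.Golay.Core Cfsg.Agent.Lib.Golay.Perm Cfsg.Agent.Lib.Golay.Chain
  Cfsg.Agent.Lib.Golay.M24 Cfsg.Agent.Lib.FusionSimple.Cert Cfsg.Agent.Lib.FusionSimple.Closure
  Cfsg.Agent.Lib.FusionSimple.Norm Cfsg.Agent.Lib.MathieuBlock.Relation
  Cfsg.Agent.Lib.MathieuBlock.Abstract Cfsg.Agent.Lib.MathieuBlock.Row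

/-- Every involution can be conjugated into a subgroup of odd index and `2`-power order. -/
theorem conj_into {Γ : Type*} [Group Γ] {G S₁ : Subgroup Γ} [Finite G] (hle : S₁ ≤ G) {k m : ℕ}
    (hcard : Nat.card S₁ = 2 ^ k) (hG : Nat.card G = 2 ^ k * m) (hm : Odd m) {y : Γ} (hy : y ∈ G)
    (hord : y * y = 1) : ∃ u ∈ G, u * y * u⁻¹ ∈ S₁ := by
  have hfac : (Nat.card G).factorization 2 = k := by
    have hm0 : m ≠ 0 := by
      rintro rfl
      simp at hm
    rw [hG, Nat.factorization_mul (by positivity) hm0, Nat.Prime.factorization_pow Nat.prime_two]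
    have : m.factorization 2 = 0 := Nat.factorization_eq_zero_of_not_dvd (by
      intro h
      exact (Nat.not_even_iff_odd.2 hm) (even_iff_two_dvd.2 h))
    simp [this]
  have hc : Nat.card (S₁.subgroupOf G) = 2 ^ (Nat.card G).factorization 2 := by
    rw [hfac, ← hcard]
    exact Nat.card_congr (Subgroup.subgroupOfEquivOfLe hle).toEquiv
  let P : Sylow 2 G := Sylow.ofCard (S₁.subgroupOf G) hc
  have memP : ∀ x : G, x ∈ (P : Subgroup G) ↔ (x : Γ) ∈ S₁ := by
    intro x
    rw [Sylow.coe_ofCard, Subgroup.mem_subgroupOf]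
  let Y : G := ⟨y, hy⟩
  have hYY : Y * Y = 1 := Subtype.ext hord
  have hp : IsPGroup 2 (Subgroup.zpowers Y) := by
    rintro ⟨z, hz⟩
    obtain ⟨n, rfl⟩ := Subgroup.mem_zpowers_iff.1 hz
    refine ⟨1, ?_⟩
    apply Subtype.ext
    show (Y ^ n) ^ 2 ^ 1 = 1
    rw [pow_one, ← zpow_natCast, ← zpow_mul, mul_comm, zpow_mul]
    have : Y ^ ((2 : ℕ) : ℤ) = 1 := by
      rw [zpow_natCast, pow_two, hYY]
    rw [this, one_zpow]
  obtain ⟨Q, hQ⟩ := hp.exists_le_sylow
  obtain ⟨c, hc'⟩ := MulAction.exists_smul_eq G P Q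
  have h1 : Y ∈ ((c • P : Sylow 2 G) : Subgroup G) := by
    rw [hc']
    exact hQ (Subgroup.mem_zpowers Y)
  rw [Cfsg.Agent.Lib.FusionSimple.Basic.mem_smul_sylow, memP] at h1
  refine ⟨(c⁻¹ : G), (c⁻¹ : G).2, ?_⟩
  have e : (c⁻¹ : G).1 * y * (c⁻¹ : G).1⁻¹ = ((c⁻¹ * Y * c : G) : Γ) := by
    simp [Y]
  rw [e]
  exact h1

/-- Counting a class and a centralizer. -/
theorem class_count {Γ : Type*} [Group Γ] {G : Subgroup Γ} [Finite G] {t : Γ} (ht : t ∈ G)
    (L : List Γ) (hnd : L.Nodup) (hL : ∀ σ ∈ L, ∃ u ∈ G, σ = u * t * u⁻¹) (A : Finset Γ)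
    (hA : ∀ a ∈ A, a ∈ G ∧ a * t = t * a) (hcount : L.length * A.card = Nat.card G) :
    (∀ u ∈ G, u * t * u⁻¹ ∈ L) ∧ (∀ c ∈ G, c * t = t * c → c ∈ A) := by
  classical
  cases nonempty_fintype G
  let T : G := ⟨t, ht⟩
  let K : Finset Γ := ((Finset.univ : Finset G).filter (fun x => IsConj T x)).image (fun x : G => (x : Γ))
  let C : Finset Γ := ((Finset.univ : Finset G).filter (fun x => x * T = T * x)).image (fun x : G => (x : Γ))
  have cardK : K.card = (Subgroup.centralizer ({T} : Set G)).index := by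
    rw [Finset.card_image_of_injective _ Subtype.val_injective]
    exact Cfsg.Agent.Lib.Char.Central.card_filter_isConj T
  have cardC : C.card = Nat.card (Subgroup.centralizer ({T} : Set G)) := by
    rw [Finset.card_image_of_injective _ Subtype.val_injective, Nat.card_eq_fintype_card,
      Fintype.card_subtype]
    congr 1
    ext x
    simp [Subgroup.mem_centralizer_singleton_iff]
  have hKC : C.card * K.card = Nat.card G := by
    rw [cardK, cardC]
    exact Subgroup.card_mul_index _
  have hLK : L.toFinset ⊆ K := by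
    intro σ hσ
    obtain ⟨u, hu, rfl⟩ := hL σ (List.mem_toFinset.1 hσ)
    refine Finset.mem_image.2 ⟨(⟨u, hu⟩ : G) * T * (⟨u, hu⟩ : G)⁻¹, ?_, rfl⟩
    rw [Finset.mem_filter]
    exact ⟨Finset.mem_univ _, isConj_iff.2 ⟨_, rfl⟩⟩
  have hAC : A ⊆ C := by
    intro a ha
    obtain ⟨h1, h2⟩ := hA a ha
    refine Finset.mem_image.2 ⟨⟨a, h1⟩, ?_, rfl⟩
    rw [Finset.mem_filter]
    exact ⟨Finset.mem_univ _, Subtype.ext h2⟩
  have h1 : L.length ≤ K.card := by
    rw [← List.toFinset_card_of_nodup hnd]
    exact Finset.card_le_card hLK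
  have h2 : A.card ≤ C.card := Finset.card_le_card hAC
  have hpos : 0 < Nat.card G := Nat.card_pos
  have h3 : L.length = K.card ∧ A.card = C.card := by
    have h6 : 0 < A.card := Nat.pos_of_ne_zero (by
      intro h
      rw [h, mul_zero] at hcount
      omega)
    have h7 : 0 < L.length := Nat.pos_of_ne_zero (by
      intro h
      rw [h, zero_mul] at hcount
      omega)
    have h8 : L.length * A.card = K.card * C.card := by rw [hcount, ← hKC, mul_comm]
    constructor
    · by_contra hne
      have hlt : L.length < K.card := lt_of_le_of_ne h1 hne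
      have := Nat.mul_lt_mul_of_lt_of_le hlt h2 (lt_of_lt_of_le h6 h2)
      omega
    · by_contra hne
      have hlt : A.card < C.card := lt_of_le_of_ne h2 hne
      have := Nat.mul_lt_mul_of_le_of_lt h1 hlt (lt_of_lt_of_le h7 h1)
      omega
  have hLeq : L.toFinset = K := Finset.eq_of_subset_of_card_le hLK (by
    rw [List.toFinset_card_of_nodup hnd, h3.1])
  have hAeq : A = C := Finset.eq_of_subset_of_card_le hAC (by rw [h3.2])
  constructor
  · intro u hu
    rw [← List.mem_toFinset, hLeq]
    refine Finset.mem_image.2 ⟨(⟨u, hu⟩ : G) * T * (⟨u, hu⟩ : G)⁻¹, ?_, rfl⟩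
    rw [Finset.mem_filter]
    exact ⟨Finset.mem_univ _, isConj_iff.2 ⟨_, rfl⟩⟩
  · intro c hc hct
    rw [hAeq]
    refine Finset.mem_image.2 ⟨⟨c, hc⟩, ?_, rfl⟩
    rw [Finset.mem_filter]
    exact ⟨Finset.mem_univ _, Subtype.ext hct⟩

/-- A conjugate in the pointwise form. -/
theorem conj_of_pointwise1 {w x s : ℕ} (vw : validPerm w = true) (vx : validPerm x = true)
    (vs : validPerm s = true)
    (h : allUpTo (fun i => Nat.beq (img w (img x i)) (img s (img w i))) 24 = true) :
    g s = g w * g x * (g w)⁻¹ := by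
  rw [eq_mul_inv_iff_mul_eq]
  refine Equiv.ext fun p => ?_
  have h1 := Nat.eq_of_beq_eq_true (allUpTo_iff.1 h _ (idx_lt p))
  have e1 : (g s * g w) p = pt (img s (img w (idx p))) := by
    rw [Equiv.Perm.mul_apply, g_apply vw, g_pt vs (valid_img_lt vw (idx_lt p))]
  have e2 : (g w * g x) p = pt (img w (img x (idx p))) := by
    rw [Equiv.Perm.mul_apply, g_apply vx, g_pt vw (valid_img_lt vx (idx_lt p))]
  rw [e1, e2, h1]

/-- Is the code an involution? -/
def isInv (x : ℕ) : Bool := cond (Nat.beq x idC) false (Nat.beq (comp x x) idC)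

/-- The witnesses for the involutions of a list. -/
def witOK (inG : ℕ → Bool) (ts : List ℕ) (wit : List (ℕ × ℕ × ℕ)) : Bool :=
  wit.all (fun p => cond (checkAut p.2.1) (cond (inG p.2.1) (cond (memC (nthC ts p.2.2) ts)
    (allUpTo (fun i => Nat.beq (img p.2.1 (img p.1 i)) (img (nthC ts p.2.2) (img p.2.1 i))) 24)
      false) false) false)

/-- All involutions of `L` have witnesses. -/
def invOK (L : List ℕ) (wit : List (ℕ × ℕ × ℕ)) : Bool :=
  allL (fun x => cond (isInv x) (memC x (wit.map Prod.fst)) true) L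

variable {G : Subgroup (Equiv.Perm GolayPt)} {inG : ℕ → Bool}

theorem R_le {pc : List ℕ} (hM2 : ∀ c, checkAut c = true → inG c = true → g c ∈ G) (hpc : pcOK pc = true)
    (hin : allL inG pc = true) : R pc ≤ G := by
  rw [R, Subgroup.closure_le]
  rintro _ ⟨a, ha, rfl⟩
  exact hM2 a (gen_checkAut hpc a ha) (allL_iff.1 hin a ha)

/-- Classification of involutions by a Sylow subgroup. -/
theorem inv_class [Finite G] (hM2 : ∀ c, checkAut c = true → inG c = true → g c ∈ G) {pc L ts : List ℕ}
    {wit : List (ℕ × ℕ × ℕ)} (hpc : pcOK pc = true) (hL : L = prodL pc) (hin : allL inG pc = true)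
    {m : ℕ} (hcard : Nat.card G = 2 ^ pc.length * m) (hm : Odd m) (hinv : invOK L wit = true)
    (hwit : witOK inG ts wit = true) (hts : ∀ t ∈ ts, checkAut t = true)
    {y : Equiv.Perm GolayPt} (hy : y ∈ G) (hyy : y * y = 1) (hy1 : y ≠ 1) :
    ∃ t ∈ ts, ∃ u ∈ G, y = u * g t * u⁻¹ := by
  subst hL
  obtain ⟨u, hu, hin'⟩ := conj_into (R_le hM2 hpc hin) (card_R hpc) hcard hm hy hyy
  obtain ⟨x, hx, hxg⟩ := (mem_R hpc _).1 hin'
  have vx := prodL_valid hpc x hx
  have nx := prodL_norm pc x hx
  have hgx1 : g x ≠ 1 := by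
    rw [hxg]
    intro h
    apply hy1
    have : y = u⁻¹ * (u * y * u⁻¹) * u := by group
    rw [this, h]
    group
  have hgx2 : g x * g x = 1 := by
    rw [hxg]
    have : u * y * u⁻¹ * (u * y * u⁻¹) = u * (y * y) * u⁻¹ := by group
    rw [this, hyy]
    group
  have hi : isInv x = true := by
    unfold isInv
    have h1 : Nat.beq x idC = false := by
      cases h : Nat.beq x idC with
      | false => rfl
      | true =>
        exfalso
        apply hgx1
        rw [Nat.eq_of_beq_eq_true h, g_idC]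
    rw [h1, cond_false]
    have h2 : comp x x = idC := by
      apply g_inj (valid_comp vx vx) idC_valid (isNorm_comp _ _) isNorm_idC
      rw [g_comp vx vx, hgx2, g_idC]
    rw [h2]
    exact Nat.beq_refl _
  have h3 := allL_iff.1 hinv x hx
  rw [hi, cond_true] at h3
  obtain ⟨⟨s, w, j⟩, hp, hs⟩ := List.mem_map.1 (memC_iff.1 h3)
  obtain rfl : s = x := hs
  have h4 := List.all_eq_true.1 hwit _ hp
  simp only at h4
  cases h5 : checkAut w <;> simp only [h5, cond_false, cond_true, Bool.false_eq_true] at h4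
  cases h6 : inG w <;> simp only [h6, cond_false, cond_true, Bool.false_eq_true] at h4
  cases h7 : memC (nthC ts j) ts <;> simp only [h7, cond_false, cond_true, Bool.false_eq_true] at h4
  have h8 := memC_iff.1 h7
  have e := conj_of_pointwise1 (checkAut_valid h5) vx (checkAut_valid (hts _ h8)) h4
  refine ⟨_, h8, (g w * u)⁻¹, G.inv_mem (G.mul_mem (hM2 _ h5 h6) hu), ?_⟩
  rw [e, hxg]
  group

/-- Does the element normalize the group of the sequence `qpc`? -/
def normC (LQ qpc : List ℕ) (a : ℕ) : Bool :=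
  cond (validPerm (invC a)) (cond (Nat.beq (comp a (invC a)) idC)
    (allL (fun q => memC (comp (comp a q) (invC a)) LQ) qpc) false) false

theorem normC_spec {qpc : List ℕ} (hq : pcOK qpc = true) {a : ℕ} (va : validPerm a = true)
    (h : normC (prodL qpc) qpc a = true) : ∀ s ∈ R qpc, g a * s * (g a)⁻¹ ∈ R qpc := by
  unfold normC at h
  cases h1 : validPerm (invC a) <;> simp only [h1, cond_false, cond_true, Bool.false_eq_true] at h
  cases h2 : Nat.beq (comp a (invC a)) idC <;> simp only [h2, cond_false, cond_true, Bool.false_eq_true] at h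
  have hinv := g_inv_of_comp va h1 (Nat.eq_of_beq_eq_true h2)
  intro s hs
  induction hs using Subgroup.closure_induction with
  | mem s hs =>
    obtain ⟨b, hb, rfl⟩ := hs
    have h3 := memC_iff.1 (allL_iff.1 h b hb)
    have vb := checkAut_valid (gen_checkAut hq b hb)
    have := (mem_R hq _).2 ⟨_, h3, rfl⟩
    rwa [g_comp (valid_comp va vb) h1, g_comp va vb, hinv] at this
  | one => simp
  | mul x y _ _ hx hy =>
    have : g a * (x * y) * (g a)⁻¹ = (g a * x * (g a)⁻¹) * (g a * y * (g a)⁻¹) := by group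
    rw [this]
    exact (R qpc).mul_mem hx hy
  | inv x _ hx =>
    have : g a * x⁻¹ * (g a)⁻¹ = (g a * x * (g a)⁻¹)⁻¹ := by group
    rw [this]
    exact (R qpc).inv_mem hx

/-- Elements of the group of a sequence normalize, if the generators do. -/
theorem normalizes_of_gens {rpc qpc : List ℕ} (hr : pcOK rpc = true) (hq : pcOK qpc = true)
    (h : allL (normC (prodL qpc) qpc) rpc = true) :
    ∀ c ∈ R rpc, ∀ s ∈ R qpc, c * s * c⁻¹ ∈ R qpc := by
  intro c hc
  induction hc using Subgroup.closure_induction with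
  | mem c hc =>
    obtain ⟨b, hb, rfl⟩ := hc
    exact normC_spec hq (checkAut_valid (gen_checkAut hr b hb)) (allL_iff.1 h b hb)
  | one => simp
  | mul x y _ _ hx hy =>
    intro s hs
    have : x * y * s * (x * y)⁻¹ = x * (y * s * y⁻¹) * x⁻¹ := by group
    rw [this]
    exact hx _ (hy s hs)
  | inv x _ hx =>
    exact fun s hs => normalizes_inv hx s hs

/-- The test of the centralizer of the sequence `qpc` in the products `a * b`. -/
def centOK (T LR qpc LQ : List ℕ) : Bool :=
  allL (fun a => allL (fun b => cond (allL (fun q => zcomm q a b) qpc) (memC (comp a b) LQ) true) LR) T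

/-- The product finset. -/
noncomputable def prodSet (T LR : List ℕ) : Finset (Equiv.Perm GolayPt) := by
  classical
  exact (T.toFinset ×ˢ LR.toFinset).image (fun p => g p.1 * g p.2)

theorem mem_prodSet {T LR : List ℕ} {c : Equiv.Perm GolayPt} :
    c ∈ prodSet T LR ↔ ∃ a ∈ T, ∃ b ∈ LR, c = g a * g b := by
  classical
  simp only [prodSet, Finset.mem_image, Finset.mem_product, List.mem_toFinset, Prod.exists]
  constructor
  · rintro ⟨a, b, ⟨ha, hb⟩, rfl⟩
    exact ⟨a, ha, b, hb, rfl⟩
  · rintro ⟨a, ha, b, hb, rfl⟩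
    exact ⟨a, b, ⟨ha, hb⟩, rfl⟩

/-- Different elements of `T` lie in different cosets. -/
def cosetOK (T LR : List ℕ) : Bool :=
  allL (fun a => cond (validPerm (invC a)) (cond (Nat.beq (comp a (invC a)) idC)
    (allL (fun a' => cond (Nat.beq a a') true (cond (memC (comp (invC a) a') LR) false true)) T) false) false) T

/-- The card of the product set. -/
theorem card_prodSet {T rpc : List ℕ} (hr : pcOK rpc = true) (hT : allL checkAut T = true)
    (hTd : T.Nodup)
    (hc : cosetOK T (prodL rpc) = true) :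
    (prodSet T (prodL rpc)).card = T.length * 2 ^ rpc.length := by
  classical
  have hinj : Set.InjOn (fun p : ℕ × ℕ => g p.1 * g p.2)
      ((T.toFinset ×ˢ (prodL rpc).toFinset : Finset (ℕ × ℕ)) : Set (ℕ × ℕ)) := by
    rintro ⟨a, b⟩ hab ⟨a', b'⟩ hab' he
    simp only [Finset.coe_product, Set.mem_prod, Finset.mem_coe, List.mem_toFinset] at hab hab'
    simp only at he
    have ca := allL_iff.1 hT a hab.1
    have ca' := allL_iff.1 hT a' hab'.1
    have va := checkAut_valid ca
    have va' := checkAut_valid ca'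
    have vb := prodL_valid hr b hab.2
    have vb' := prodL_valid hr b' hab'.2
    have h0 := allL_iff.1 hc a hab.1
    cases h1 : validPerm (invC a) <;> simp only [h1, cond_false, cond_true, Bool.false_eq_true] at h0
    cases h2 : Nat.beq (comp a (invC a)) idC <;>
      simp only [h2, cond_false, cond_true, Bool.false_eq_true] at h0
    have hinv := g_inv_of_comp va h1 (Nat.eq_of_beq_eq_true h2)
    have h3 := allL_iff.1 h0 a' hab'.1
    have haa : a = a' := by
      cases h4 : Nat.beq a a'
      · exfalso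
        rw [h4, cond_false] at h3
        cases h5 : memC (comp (invC a) a') (prodL rpc) with
        | true =>
          rw [h5] at h3
          exact Bool.noConfusion h3
        | false =>
          -- the product is in the group
          have h6 : g (comp (invC a) a') = (g a)⁻¹ * g a' := by
            rw [g_comp h1 va', hinv]
          have h7 : (g a)⁻¹ * g a' ∈ R rpc := by
            have e : (g a)⁻¹ * g a' = g b * (g b')⁻¹ := by
              rw [inv_mul_eq_iff_eq_mul, ← mul_assoc]
              rw [eq_mul_inv_iff_mul_eq]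
              exact he.symm
            rw [e]
            exact (R rpc).mul_mem ((mem_R hr _).2 ⟨b, hab.2, rfl⟩)
              ((R rpc).inv_mem ((mem_R hr _).2 ⟨b', hab'.2, rfl⟩))
          obtain ⟨w, hw, hwg⟩ := (mem_R hr _).1 h7
          have h8 : w = comp (invC a) a' :=
            g_inj (prodL_valid hr w hw) (valid_comp h1 va') (prodL_norm rpc w hw) (isNorm_comp _ _)
              (by rw [hwg, h6])
          rw [h8] at hw
          rw [memC_iff.2 hw] at h5
          exact Bool.noConfusion h5
      · exact Nat.eq_of_beq_eq_true h4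
    subst haa
    have hbb : g b = g b' := mul_left_cancel he
    have := g_inj vb vb' (prodL_norm rpc b hab.2) (prodL_norm rpc b' hab'.2) hbb
    rw [this]
  rw [prodSet, Finset.card_image_of_injOn hinj, Finset.card_product,
    List.toFinset_card_of_nodup hTd, List.toFinset_card_of_nodup (prodL_nodup hr), length_prodL]

/-- The local property of `g t`. -/
theorem localProp {inG : ℕ → Bool} (hM2 : ∀ c, checkAut c = true → inG c = true → g c ∈ G) {t : ℕ}
    (ct : checkAut t = true) {T rpc qpc : List ℕ} (hr : pcOK rpc = true) (hq : pcOK qpc = true)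
    (hcov : ∀ c ∈ G, c * g t = g t * c → ∃ a ∈ T, ∃ b ∈ prodL rpc, c = g a * g b)
    (hT : allL checkAut T = true)
    (hTn : allL (normC (prodL qpc) qpc) T = true)
    (hrn : allL (normC (prodL qpc) qpc) rpc = true)
    (hqG : allL inG qpc = true) (hqt : allL (fun q => comm q t) qpc = true)
    (hcent : centOK T (prodL rpc) qpc (prodL qpc) = true) :
    LocalProp G (g t) (R qpc) := by
  have vt := checkAut_valid ct
  refine ⟨R_le hM2 hq hqG, ?_, isPGroup_R hq, ?_, ?_⟩
  · intro s hs
    induction hs using Subgroup.closure_induction with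
    | mem s hs =>
      obtain ⟨b, hb, rfl⟩ := hs
      exact (comm_spec (checkAut_valid (gen_checkAut hq b hb)) vt).1 (allL_iff.1 hqt b hb)
    | one => simp
    | mul x y _ _ hx hy =>
      rw [mul_assoc, hy, ← mul_assoc, hx, mul_assoc]
    | inv x _ hx =>
      exact Commute.inv_left hx
  · intro c hc hct s hs
    obtain ⟨a, ha, b, hb, rfl⟩ := hcov c hc hct
    have h1 := normalizes_of_gens hr hq hrn (g b) ((mem_R hr _).2 ⟨b, hb, rfl⟩) s hs
    have h2 := normC_spec hq (checkAut_valid (allL_iff.1 hT a ha)) (allL_iff.1 hTn a ha) _ h1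
    have e : g a * g b * s * (g a * g b)⁻¹ = g a * (g b * s * (g b)⁻¹) * (g a)⁻¹ := by group
    rw [e]
    exact h2
  · intro c hc hct hcq
    obtain ⟨a, ha, b, hb, rfl⟩ := hcov c hc hct
    have ca := allL_iff.1 hT a ha
    have va := checkAut_valid ca
    have h1 := allL_iff.1 (allL_iff.1 hcent a ha) b hb
    have vb := prodL_valid hr b hb
    have h2 : allL (fun q => zcomm q a b) qpc = true := by
      rw [allL_iff]
      intro q hq'
      apply zcomm_of_comm (checkAut_valid (gen_checkAut hq q hq')) va vb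
      rw [g_comp va vb]
      exact hcq _ (gen_mem_R hq')
    rw [h2, cond_true] at h1
    have := (mem_R hq _).2 ⟨_, memC_iff.1 h1, rfl⟩
    rwa [g_comp va vb] at this

end Cfsg.Agent.Lib.MathieuBlock.Class
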