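import Cfsg.Agent.Lib.MathieuBlock.M24KA

set_option autoImplicit false

namespace Cfsg.Agent.Lib.MathieuBlock.M24LocA

open Cfsg Cfsg.Agent.Lib.Golay.Core Cfsg.Agent.Lib.Golay.Perm Cfsg.Agent.Lib.Golay.Chain
  Cfsg.Agent.Lib.Golay.M24 Cfsg.Agent.Lib.FusionSimple.Cert
  Cfsg.Agent.Lib.FusionSimple.Closure Cfsg.Agent.Lib.FusionSimple.Norm
  Cfsg.Agent.Lib.MathieuBlock.Relation Cfsg.Agent.Lib.MathieuBlock.Abstract
  Cfsg.Agent.Lib.MathieuBlock.Row Cfsg.Agent.Lib.MathieuBlock.Class Cfsg.Agent.Lib.MathieuBlock.Main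
  Cfsg.Agent.Lib.MathieuBlock.M24Base Cfsg.Agent.Lib.MathieuBlock.M24KA

theorem hqpc : pcOK qpcA = true := by decide +kernel
theorem hLQ : LQA = prodL qpcA := by decide +kernel
theorem hTn : allL (normC LQA qpcA) TA = true := by decide +kernel
theorem hrn : allL (normC LQA qpcA) pc = true := by decide +kernel
theorem hqG : allL inG' qpcA = true := by decide +kernel
theorem hqt : allL (fun q => comm q tA) qpcA = true := by decide +kernel
theorem hcent : centOK TA LS qpcA LQA = true := by decide +kernel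

theorem hloc : LocalProp M24 (g tA) (R qpcA) :=
  localProp hM2 ctA hpc hqpc K_facts.2.2 hTck (by rw [← hLQ]; exact hTn) (by rw [← hLQ]; exact hrn) hqG hqt
    (by rw [← hLQ, ← hLS]; exact hcent)

end Cfsg.Agent.Lib.MathieuBlock.M24LocA
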