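import Cfsg.Agent.Lib.MathieuBlock.M24KB0
import Cfsg.Agent.Lib.MathieuBlock.M24KB1
import Cfsg.Agent.Lib.MathieuBlock.M24KB2
import Cfsg.Agent.Lib.MathieuBlock.M24KB3

set_option autoImplicit false

namespace Cfsg.Agent.Lib.MathieuBlock.M24LocB

open Cfsg Cfsg.Agent.Lib.Golay.Core Cfsg.Agent.Lib.Golay.Perm Cfsg.Agent.Lib.Golay.Chain
  Cfsg.Agent.Lib.Golay.M24 Cfsg.Agent.Lib.FusionSimple.Cert
  Cfsg.Agent.Lib.FusionSimple.Closure Cfsg.Agent.Lib.FusionSimple.Norm
  Cfsg.Agent.Lib.MathieuBlock.Relation Cfsg.Agent.Lib.MathieuBlock.Abstract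
  Cfsg.Agent.Lib.MathieuBlock.Row Cfsg.Agent.Lib.MathieuBlock.Class Cfsg.Agent.Lib.MathieuBlock.Main
  Cfsg.Agent.Lib.MathieuBlock.M24Base

def Ks : List ℕ := M24KB0.Ks ++ M24KB1.Ks ++ M24KB2.Ks ++ M24KB3.Ks

theorem hKok : allL (classOK inG' (noFix tB)) Ks = true := by
  rw [allL_iff]
  intro x hx
  have hx' : x ∈ M24KB0.Ks ++ M24KB1.Ks ++ M24KB2.Ks ++ M24KB3.Ks := hx
  rcases List.mem_append.1 hx' with hx' | hx'
  · rcases List.mem_append.1 hx' with hx' | hx'
    · rcases List.mem_append.1 hx' with hx' | hx'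
      · exact allL_iff.1 M24KB0.hKok x hx'
      · exact allL_iff.1 M24KB1.hKok x hx'
    · exact allL_iff.1 M24KB2.hKok x hx'
  · exact allL_iff.1 M24KB3.hKok x hx'

theorem hKchain : chainC Ks 0 = true := by decide +kernel
theorem hr : pcOK rgB = true := by decide +kernel
theorem hLR : LRB = prodL rgB := by decide +kernel
theorem hrG : allL inG' rgB = true := by decide +kernel
theorem hTck : allL checkAut TB = true := by decide +kernel
theorem hTG : allL inG' TB = true := by decide +kernel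
theorem hTc : allL (fun a => comm a tB) TB = true := by decide +kernel
theorem hTd : TB.Nodup := by decide +kernel
theorem hrc : allL (fun a => comm a tB) rgB = true := by decide +kernel
theorem hco : cosetOK TB LRB = true := by decide +kernel

theorem K_facts : (Ks.map g).Nodup ∧ (∀ σ, σ ∈ Ks.map g ↔ ∃ u ∈ M24, σ = u * g tB * u⁻¹) ∧
    ∀ c ∈ M24, c * g tB = g tB * c → ∃ a ∈ TB, ∃ b ∈ prodL rgB, c = g a * g b :=
  class_thm (G := M24) (inG := inG') hM2 hts
  (fun y hy h1 h2 => hinvol hy h1 h2) ctB htBG hselB hKok (chainC_nodup hKchain) hr hTck hTG hTc hTd hrG hrc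
  (by rw [← hLR]; exact hco)
  (by rw [card_M24]; decide +kernel)

theorem hqpc : pcOK qpcB = true := by decide +kernel
theorem hLQ : LQB = prodL qpcB := by decide +kernel
theorem hTn : allL (normC LQB qpcB) TB = true := by decide +kernel
theorem hrn : allL (normC LQB qpcB) rgB = true := by decide +kernel
theorem hqG : allL inG' qpcB = true := by decide +kernel
theorem hqt : allL (fun q => comm q tB) qpcB = true := by decide +kernel
theorem hcent : centOK TB LRB qpcB LQB = true := by decide +kernel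

theorem hloc : LocalProp M24 (g tB) (R qpcB) :=
  localProp hM2 ctB hr hqpc K_facts.2.2 hTck (by rw [← hLQ]; exact hTn) (by rw [← hLQ]; exact hrn) hqG hqt
    (by rw [← hLQ, ← hLR]; exact hcent)

end Cfsg.Agent.Lib.MathieuBlock.M24LocB
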