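import Cfsg.Agent.Lib.MathieuBlock.Class

/-!
# A single `2`-block from kernel certificates
-/

set_option autoImplicit false

namespace Cfsg.Agent.Lib.MathieuBlock.Main

open Cfsg Cfsg.Agent.Lib.Golay.Core Cfsg.Agent.Lib.Golay.Perm Cfsg.Agent.Lib.Golay.Chain
  Cfsg.Agent.Lib.Golay.M24 Cfsg.Agent.Lib.FusionSimple.Cert Cfsg.Agent.Lib.FusionSimple.Closure
  Cfsg.Agent.Lib.FusionSimple.Norm Cfsg.Agent.Lib.MathieuBlock.Relation
  Cfsg.Agent.Lib.MathieuBlock.Abstract Cfsg.Agent.Lib.MathieuBlock.Row
  Cfsg.Agent.Lib.MathieuBlock.Class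

/-- The assembly. -/
theorem main_sameBlock {Γ : Type*} [Group Γ] {G : Subgroup Γ} [Finite G] {ts : List Γ}
    (hinvol : ∀ y ∈ G, y * y = 1 → y ≠ 1 → ∃ t ∈ ts, ∃ u ∈ G, y = u * t * u⁻¹)
    (hloc : ∀ t ∈ ts, ∃ Q₀, LocalProp G t Q₀)
    (hrel : ∀ F : Γ → ℂ, RelF G F → False) {M : Ideal AlgInt} (hM : IsPModular 2 M)
    (χ ψ : IrrCharacter G) : SameBlock M (χ : G → ℂ) (ψ : G → ℂ) := by
  refine Cfsg.Agent.Lib.MathieuBlock.Reduce.sameBlock_of_local hM ?_ ?_ χ ψ
  · intro y hy χ' ψ'
    have h1 : (y : Γ) * y = 1 := by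
      have : y * y = 1 := by rw [← pow_two, ← hy, pow_orderOf_eq_one]
      exact congrArg Subtype.val this
    have h2 : (y : Γ) ≠ 1 := by
      intro h
      have : y = 1 := Subtype.ext h
      rw [this, orderOf_one] at hy
      omega
    obtain ⟨t, ht, u, hu, he⟩ := hinvol _ y.2 h1 h2
    obtain ⟨Q₀, hQ⟩ := hloc t ht
    have hQ' := hQ.conj hu
    rw [← he] at hQ'
    exact single_block hQ' hM χ' ψ'
  · intro χ' h
    exact hrel _ (exists_relF hM χ' h)

/-- A strictly increasing list. -/
def chainC : List ℕ → ℕ → Bool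
  | [], _ => true
  | h :: t, a => cond (Nat.blt a h) (chainC t h) false

theorem chainC_pairwise : ∀ (l : List ℕ) (a : ℕ), chainC l a = true →
    l.Pairwise (· < ·) ∧ ∀ x ∈ l, a < x := by
  intro l
  induction l with
  | nil => simp
  | cons h t ih =>
    intro a hc
    change cond (Nat.blt a h) (chainC t h) false = true at hc
    cases h1 : Nat.blt a h <;> simp only [h1, cond_false, cond_true, Bool.false_eq_true] at hc
    have hah : a < h := by simpa [Nat.blt_eq] using h1
    obtain ⟨h2, h3⟩ := ih h hc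
    refine ⟨List.pairwise_cons.2 ⟨h3, h2⟩, ?_⟩
    intro x hx
    rcases List.mem_cons.1 hx with rfl | hx
    · exact hah
    · exact hah.trans (h3 x hx)

theorem chainC_nodup {l : List ℕ} (h : chainC l 0 = true) : l.Nodup :=
  (chainC_pairwise l 0 h).1.imp (fun hab => Nat.ne_of_lt hab)

/-- The test that `x` has no fixed point. -/
def noFix (x : ℕ) : Bool := allUpTo (fun i => cond (Nat.beq (img x i) i) false true) 24

theorem noFix_iff {x : ℕ} (vx : validPerm x = true) : noFix x = true ↔ ∀ p, g x p ≠ p := by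
  unfold noFix
  rw [allUpTo_iff]
  constructor
  · intro h p hp
    have h1 := h _ (idx_lt p)
    have h2 : img x (idx p) = idx p := by
      have := congrArg idx hp
      rwa [idx_g vx] at this
    rw [h2, Nat.beq_refl] at h1
    exact Bool.noConfusion h1
  · intro h i hi
    cases h1 : Nat.beq (img x i) i with
    | false => rfl
    | true =>
      exfalso
      apply h (pt i)
      rw [g_pt vx hi, Nat.eq_of_beq_eq_true h1]

theorem noFix_conj {x y : ℕ} (vx : validPerm x = true) (vy : validPerm y = true)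
    {u : Equiv.Perm GolayPt} (h : g y = u * g x * u⁻¹) : noFix y = noFix x := by
  have key : (∀ p, g y p ≠ p) ↔ ∀ p, g x p ≠ p := by
    constructor
    · intro h1 p hp
      apply h1 (u p)
      rw [h]
      simp [hp]
    · intro h1 p hp
      apply h1 (u⁻¹ p)
      rw [h] at hp
      simp only [Equiv.Perm.mul_apply] at hp
      rw [eq_comm, Equiv.Perm.inv_eq_iff_eq]
      exact hp.symm
  cases h1 : noFix y <;> cases h2 : noFix x
  · rfl
  · have := (noFix_iff vy).not.1 (by simp [h1])
    exact absurd (key.2 ((noFix_iff vx).1 h2)) this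
  · have := (noFix_iff vx).not.1 (by simp [h2])
    exact absurd (key.1 ((noFix_iff vy).1 h1)) this
  · rfl

/-- The check on the elements of a conjugacy class. -/
def classOK (inG : ℕ → Bool) (tf : Bool) (x : ℕ) : Bool :=
  cond (checkAut x) (cond (inG x) (cond (Nat.beq (pack (img x) 24) x) (cond (isInv x)
    (match tf, noFix x with
      | true, true => true
      | false, false => true
      | _, _ => false) false) false) false) false

variable {G : Subgroup (Equiv.Perm GolayPt)} {inG : ℕ → Bool}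

theorem classOK_spec {tf : Bool} {x : ℕ} (h : classOK inG tf x = true) :
    checkAut x = true ∧ inG x = true := by
  unfold classOK at h
  cases h1 : checkAut x <;> simp only [h1, cond_false, cond_true, Bool.false_eq_true] at h
  cases h2 : inG x <;> simp only [h2, cond_false, cond_true, Bool.false_eq_true] at h
  exact ⟨rfl, rfl⟩

/-- The class of `t` and the centralizer of `t`. -/
theorem class_thm [Finite G] (hM2 : ∀ c, checkAut c = true → inG c = true → g c ∈ G)
    {ts : List ℕ} (hts : ∀ t ∈ ts, checkAut t = true)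
    (hinvol : ∀ y ∈ G, y * y = 1 → y ≠ 1 → ∃ t ∈ ts, ∃ u ∈ G, y = u * g t * u⁻¹)
    {t : ℕ} (ct : checkAut t = true) (htG : inG t = true)
    (hsel : ∀ t' ∈ ts, noFix t' = noFix t → t' = t)
    {L T rpc : List ℕ} (hL : allL (classOK inG (noFix t)) L = true) (hnd : L.Nodup)
    (hr : pcOK rpc = true) (hT : allL checkAut T = true) (hTG : allL inG T = true)
    (hTc : allL (fun a => comm a t) T = true) (hTd : T.Nodup)
    (hrG : allL inG rpc = true) (hrc : allL (fun a => comm a t) rpc = true)
    (hco : cosetOK T (prodL rpc) = true)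
    (hcount : L.length * (T.length * 2 ^ rpc.length) = Nat.card G) :
    (L.map g).Nodup ∧ (∀ σ, σ ∈ L.map g ↔ ∃ u ∈ G, σ = u * g t * u⁻¹) ∧
      ∀ c ∈ G, c * g t = g t * c → ∃ a ∈ T, ∃ b ∈ prodL rpc, c = g a * g b := by
  have vt := checkAut_valid ct
  have htG' := hM2 t ct htG
  have hLs : ∀ x ∈ L, checkAut x = true ∧ inG x = true ∧ IsNorm x ∧ isInv x = true ∧
      noFix x = noFix t := by
    intro x hx
    have h0 := allL_iff.1 hL x hx
    unfold classOK at h0
    cases h1 : checkAut x <;> simp only [h1, cond_false, cond_true, Bool.false_eq_true] at h0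
    cases h2 : inG x <;> simp only [h2, cond_false, cond_true, Bool.false_eq_true] at h0
    cases h3 : Nat.beq (pack (img x) 24) x <;> simp only [h3, cond_false, cond_true, Bool.false_eq_true] at h0
    cases h4 : isInv x <;> simp only [h4, cond_false, cond_true, Bool.false_eq_true] at h0
    refine ⟨rfl, rfl, Nat.eq_of_beq_eq_true h3, rfl, ?_⟩
    cases h5 : noFix t <;> cases h6 : noFix x <;> simp [h5, h6] at h0 ⊢
  have hinj : ∀ x ∈ L, ∀ y ∈ L, g x = g y → x = y := by
    intro x hx y hy hxy
    obtain ⟨c1, -, n1, -, -⟩ := hLs x hx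
    obtain ⟨c2, -, n2, -, -⟩ := hLs y hy
    exact g_inj (checkAut_valid c1) (checkAut_valid c2) n1 n2 hxy
  have hnd' : (L.map g).Nodup := List.Nodup.map_on (fun x hx y hy hxy => hinj x hx y hy hxy) hnd
  have hLconj : ∀ σ ∈ L.map g, ∃ u ∈ G, σ = u * g t * u⁻¹ := by
    intro σ hσ
    obtain ⟨x, hx, rfl⟩ := List.mem_map.1 hσ
    obtain ⟨c1, c2, -, c4, c5⟩ := hLs x hx
    have vx := checkAut_valid c1
    unfold isInv at c4
    cases h1 : Nat.beq x idC <;> simp only [h1, cond_false, cond_true, Bool.false_eq_true] at c4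
    have h2 : comp x x = idC := Nat.eq_of_beq_eq_true c4
    have h3 : g x * g x = 1 := by rw [← g_comp vx vx, h2, g_idC]
    have h4 : g x ≠ 1 := by
      intro h
      have : x = idC := by
        apply g_inj vx idC_valid _ isNorm_idC
        · rw [h, g_idC]
        · exact (hLs x hx).2.2.1
      rw [this, Nat.beq_refl] at h1
      exact Bool.noConfusion h1
    obtain ⟨t', ht', u, hu, he⟩ := hinvol _ (hM2 x c1 c2) h3 h4
    have h5 : noFix x = noFix t' := noFix_conj (checkAut_valid (hts _ ht')) vx he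
    have h6 := hsel t' ht' (h5.symm.trans c5)
    subst h6
    exact ⟨u, hu, he⟩
  have hAG : ∀ a ∈ prodSet T (prodL rpc), a ∈ G ∧ a * g t = g t * a := by
    intro a ha
    obtain ⟨a, ha', b, hb, rfl⟩ := mem_prodSet.1 ha
    have ca := allL_iff.1 hT a ha'
    have va := checkAut_valid ca
    have h1 : g b ∈ R rpc := (mem_R hr _).2 ⟨b, hb, rfl⟩
    have h2 : ∀ s ∈ R rpc, s * g t = g t * s := by
      intro s hs
      induction hs using Subgroup.closure_induction with
      | mem s hs =>
        obtain ⟨b, hb, rfl⟩ := hs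
        exact (comm_spec (checkAut_valid (gen_checkAut hr b hb)) vt).1 (allL_iff.1 hrc b hb)
      | one => simp
      | mul x y _ _ hx hy =>
        rw [mul_assoc, hy, ← mul_assoc, hx, mul_assoc]
      | inv x _ hx =>
        exact Commute.inv_left hx
    refine ⟨G.mul_mem (hM2 a ca (allL_iff.1 hTG a ha')) (R_le hM2 hr hrG h1), ?_⟩
    have h3 := (comm_spec va vt).1 (allL_iff.1 hTc a ha')
    rw [mul_assoc, h2 _ h1, ← mul_assoc, h3, mul_assoc]
  have hlen : (L.map g).length * (prodSet T (prodL rpc)).card = Nat.card G := by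
    rw [List.length_map, card_prodSet hr hT hTd hco, hcount]
  obtain ⟨h1, h2⟩ := class_count htG' (L.map g) hnd' hLconj _ hAG hlen
  refine ⟨hnd', fun σ => ⟨hLconj σ, ?_⟩, ?_⟩
  · rintro ⟨u, hu, rfl⟩
    exact h1 u hu
  · intro c hc hct
    exact mem_prodSet.1 (h2 c hc hct)

/-- A row gives a linear relation. -/
theorem row_eq {F : Equiv.Perm GolayPt → ℂ} (hF : RelF G F)
    (hM2 : ∀ c, checkAut c = true → inG c = true → g c ∈ G)
    {reps : List ℕ} (hreps : ∀ s ∈ reps, checkAut s = true) (hlen : reps.length < 998) {t : ℕ}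
    (ct : checkAut t = true) (nt : IsNorm t) (htG : inG t = true) (hte : isInv t = true)
    {Cs Ws Es : List (List ℕ)} {r : ℕ} (cr : checkAut r = true) (hrG : inG r = true)
    (hK : (Cs.flatten.map g).Nodup) (hK2 : ∀ σ, σ ∈ Cs.flatten.map g ↔ ∃ u ∈ G, σ = u * g t * u⁻¹)
    (hCs : ∀ x ∈ Cs.flatten, checkAut x = true ∧ inG x = true)
    (hrow : rowAll inG reps r Cs Ws Es = true) :
    evalA (vals F reps) (totalV reps.length Es) = 0 := by
  have vr := checkAut_valid cr
  have hrG' := hM2 r cr hrG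
  have h1 := (rowAll_sound hF hM2 hreps hlen vr hrG' Cs Ws Es (by
    intro x hx
    obtain ⟨h1, h0⟩ := hCs x hx
    exact ⟨checkAut_valid h1, hM2 x h1 h0⟩) hrow).2
  rw [← h1]
  have vt := checkAut_valid ct
  have h2 : 2 ∣ orderOf (g t) := by
    unfold isInv at hte
    cases h3 : Nat.beq t idC <;> simp only [h3, cond_false, cond_true, Bool.false_eq_true] at hte
    have h4 : g t * g t = 1 := by
      rw [← g_comp vt vt, Nat.eq_of_beq_eq_true hte, g_idC]
    have h5 : g t ≠ 1 := by
      intro h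
      have h6 : t = idC := by
        apply g_inj vt idC_valid nt isNorm_idC
        rw [h, g_idC]
      rw [h6, Nat.beq_refl] at h3
      exact Bool.noConfusion h3
    have h6 : orderOf (g t) = 2 := orderOf_eq_prime (by rw [pow_two, h4]) h5
    rw [h6]
  have h3 := hF.sum (g t) (hM2 t ct htG) h2 _ hK hK2 (g r) hrG'
  rwa [List.map_map] at h3

end Cfsg.Agent.Lib.MathieuBlock.Main
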