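import Cfsg.Agent.S4717
import Cfsg.Agent.S4487
import Cfsg.Agent.S0914
import Cfsg.Agent.Lib.BlockT.Inflate2
import Cfsg.Agent.Lib.Char.Degree
import Cfsg.Agent.Lib.Char.Burnside

/-!
# A single `2`-block from local data

If the centralizer of every involution has a single `2`-block and no irreducible character has
`2`-defect zero, then there is a single `2`-block.
-/

set_option autoImplicit false

namespace Cfsg.Agent.Lib.MathieuBlock.Reduce

open Cfsg
open scoped ComplexConjugate

/-- Deficiency class one gives a single block. -/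
theorem sameBlock_of_local {G : Type*} [Group G] [Finite G] {M : Ideal AlgInt}
    (hM : IsPModular 2 M)
    (hloc : ∀ y : G, orderOf y = 2 → ∀ χ ψ : IrrCharacter ↥(Subgroup.centralizer ({y} : Set G)),
      SameBlock M (χ : ↥(Subgroup.centralizer ({y} : Set G)) → ℂ)
        (ψ : ↥(Subgroup.centralizer ({y} : Set G)) → ℂ))
    (hdz : ∀ χ : IrrCharacter G, ¬ 2 ∣ Nat.card G / charDegree (χ : G → ℂ) → False)
    (χ ψ : IrrCharacter G) : SameBlock M (χ : G → ℂ) (ψ : G → ℂ) := by
  classical
  cases nonempty_fintype G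
  have := Cfsg.Agent.Lib.Blocks.Local.isPrime_of_pModular hM
  have key := (Cfsg.Agent.S4717.result (G := G) 2 M hM 1).2 (by norm_num) (by
    intro y hy B' hB' hne
    exfalso
    apply hne
    obtain ⟨χ₀, rfl⟩ := hB'
    have : Fintype ↥(Subgroup.centralizer ({y} : Set G)) := Fintype.ofFinite _
    ext ψ
    constructor
    · intro _
      have hone : IsIrrCharacter ↥(Subgroup.centralizer ({y} : Set G)) (fun _ => (1 : ℂ)) :=
        Cfsg.Agent.Lib.Char.Burnside.isIrrCharacter_one
      exact hloc y hy ⟨_, hone⟩ ψ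
    · intro _
      exact hloc y hy χ₀ ψ)
  have main : ∀ χ : IrrCharacter G, SameBlock M (fun _ : G => (1 : ℂ)) (χ : G → ℂ) := by
    intro χ
    by_contra hχ
    have hne : blockOf M (χ : G → ℂ) ≠ principalBlock M G := by
      intro h
      apply hχ
      have h1 : χ ∈ blockOf M (χ : G → ℂ) := Cfsg.Agent.Lib.Blocks.Central.mem_blockOf_self χ
      rw [h] at h1
      exact h1
    have hd := key _ ⟨χ, rfl⟩ hne
    apply hdz χ
    have hχ0 : 0 < charDegree (χ : G → ℂ) := Cfsg.Agent.Lib.Char.Degree.charDegree_pos χ.2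
    have hdvd : charDegree (χ : G → ℂ) ∣ Nat.card G := Cfsg.Agent.Lib.Char.Degree.charDegree_dvd_card χ.2
    have h2 : (Nat.card G).factorization 2 ≤ (charDegree (χ : G → ℂ)).factorization 2 := by
      have h3 : sInf ((fun χ : IrrCharacter G => (charDegree (χ : G → ℂ)).factorization 2) ''
          blockOf M (χ : G → ℂ)) ≤ (charDegree (χ : G → ℂ)).factorization 2 :=
        Nat.sInf_le ⟨χ, Cfsg.Agent.Lib.Blocks.Central.mem_blockOf_self χ, rfl⟩
      have h4 : blockDefect 2 (blockOf M (χ : G → ℂ)) < 1 := hd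
      unfold blockDefect at h4
      omega
    obtain ⟨k, hk⟩ := hdvd
    have hk0 : k ≠ 0 := by
      rintro rfl
      have : 0 < Nat.card G := Nat.card_pos
      omega
    have h5 : Nat.card G / charDegree (χ : G → ℂ) = k := by
      rw [hk, Nat.mul_div_cancel_left _ hχ0]
    rw [h5]
    intro h6
    rw [hk, Nat.factorization_mul hχ0.ne' hk0, Finsupp.add_apply] at h2
    have h7 : 0 < k.factorization 2 := (Nat.Prime.factorization_pos_of_dvd Nat.prime_two hk0 h6)
    omega
  exact Cfsg.Agent.Lib.Blocks.Central.sameBlock_trans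
    (Cfsg.Agent.Lib.Blocks.Central.sameBlock_symm (main χ)) (main ψ)

/-- A character of defect zero vanishes on elements of order divisible by the prime. -/
theorem eq_zero_of_defect_zero {G : Type*} [Group G] [Finite G] {p : ℕ} [Fact p.Prime] {M : Ideal AlgInt}
    (hM : IsPModular p M) (χ : IrrCharacter G) (h : ¬ p ∣ Nat.card G / charDegree (χ : G → ℂ))
    {y : G} (hy : p ∣ orderOf y) : (χ : G → ℂ) y = 0 := by
  classical
  cases nonempty_fintype G
  have hb := (Cfsg.Agent.S0914.result p M hM χ).1 h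
  have hB : IsPBlock M ({χ} : Set (IrrCharacter G)) := ⟨χ, hb.symm⟩
  have h1 := Cfsg.Agent.Lib.BlockT.Inflate2.blockCoeff_eq_zero hM hB hy
  unfold blockCoeff at h1
  rw [finsum_mem_singleton] at h1
  have hcard : ((Nat.card G : ℂ))⁻¹ ≠ 0 := by
    apply inv_ne_zero
    exact_mod_cast (Nat.card_pos (α := G)).ne'
  have h2 := (mul_eq_zero.1 h1).resolve_left hcard
  have h3 := (mul_eq_zero.1 h2).resolve_left (Cfsg.Agent.Lib.Char.Complete.irr_one_ne_zero χ.2)
  simpa using h3

end Cfsg.Agent.Lib.MathieuBlock.Reduce
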