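import Cfsg.Agent.Lib.MathieuBlock.Abstract

/-!
# A class function attached to a character of `2`-defect zero

On a subgroup `G` of an ambient group, a character of defect zero gives the function
`F σ = χ σ + χ σ⁻¹`, vanishing outside `G` and on elements of even order, and annihilated by
the sum over a class of elements of even order.
-/

set_option autoImplicit false

namespace Cfsg.Agent.Lib.MathieuBlock.Relation

open Cfsg
open Cfsg.Agent.Lib.Blocks.Central Cfsg.Agent.Lib.MathieuBlock.Abstract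
  Cfsg.Agent.Lib.MathieuBlock.Reduce

variable {Γ : Type*} [Group Γ]

/-- The properties of the function attached to a character of defect zero. -/
structure RelF (G : Subgroup Γ) (F : Γ → ℂ) : Prop where
  conj : ∀ σ ∈ G, ∀ u ∈ G, F (u * σ * u⁻¹) = F σ
  inv : ∀ σ ∈ G, F σ⁻¹ = F σ
  even : ∀ σ ∈ G, 2 ∣ orderOf σ → F σ = 0
  one : F 1 ≠ 0
  sum : ∀ t ∈ G, 2 ∣ orderOf t → ∀ K : List Γ, K.Nodup → (∀ σ, σ ∈ K ↔ ∃ u ∈ G, σ = u * t * u⁻¹) →
    ∀ ρ ∈ G, (K.map (fun σ => F (σ * ρ))).sum = 0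

open Classical in
/-- The function. -/
noncomputable def theF (G : Subgroup Γ) (χ : IrrCharacter G) (σ : Γ) : ℂ :=
  if h : σ ∈ G then (χ : G → ℂ) ⟨σ, h⟩ + (χ : G → ℂ) ⟨σ, h⟩⁻¹ else 0

theorem theF_mk (G : Subgroup Γ) (χ : IrrCharacter G) (x : G) :
    theF G χ (x : Γ) = (χ : G → ℂ) x + (χ : G → ℂ) x⁻¹ := by
  rw [theF, dif_pos x.2]

theorem orderOf_coe {G : Subgroup Γ} (x : G) : orderOf (x : Γ) = orderOf x :=
  Subgroup.orderOf_coe x

theorem exists_relF {G : Subgroup Γ} [Finite G] {M : Ideal AlgInt} (hM : IsPModular 2 M)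
    (χ : IrrCharacter G) (h : ¬ 2 ∣ Nat.card G / charDegree (χ : G → ℂ)) : RelF G (theF G χ) := by
  classical
  cases nonempty_fintype G
  have hcl := Cfsg.Agent.Lib.Char.Basic.isClassFunction_of_isIrrCharacter χ.2
  have hz : ∀ x : G, 2 ∣ orderOf x → (χ : G → ℂ) x = 0 := fun x hx => eq_zero_of_defect_zero hM χ h hx
  refine ⟨?_, ?_, ?_, ?_, ?_⟩
  · intro σ hσ u hu
    have e : u * σ * u⁻¹ = (((⟨u, hu⟩ : G) * ⟨σ, hσ⟩ * (⟨u, hu⟩ : G)⁻¹ : G) : Γ) := rfl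
    have e3 : theF G χ σ = (χ : G → ℂ) ⟨σ, hσ⟩ + (χ : G → ℂ) ⟨σ, hσ⟩⁻¹ := theF_mk G χ ⟨σ, hσ⟩
    rw [e, theF_mk, e3]
    have e2 : ((⟨u, hu⟩ : G) * ⟨σ, hσ⟩ * (⟨u, hu⟩ : G)⁻¹)⁻¹ =
        (⟨u, hu⟩ : G) * (⟨σ, hσ⟩ : G)⁻¹ * (⟨u, hu⟩ : G)⁻¹ := by group
    rw [e2, hcl, hcl]
  · intro σ hσ
    have e : σ⁻¹ = (((⟨σ, hσ⟩ : G)⁻¹ : G) : Γ) := rfl
    have e3 : theF G χ σ = (χ : G → ℂ) ⟨σ, hσ⟩ + (χ : G → ℂ) ⟨σ, hσ⟩⁻¹ := theF_mk G χ ⟨σ, hσ⟩
    rw [e, theF_mk, e3, inv_inv, add_comm]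
  · intro σ hσ hev
    have e3 : theF G χ σ = (χ : G → ℂ) ⟨σ, hσ⟩ + (χ : G → ℂ) ⟨σ, hσ⟩⁻¹ := theF_mk G χ ⟨σ, hσ⟩
    rw [e3]
    have h1 : 2 ∣ orderOf (⟨σ, hσ⟩ : G) := by
      rw [← orderOf_coe]
      exact hev
    rw [hz _ h1, hz _ (by rw [orderOf_inv]; exact h1), add_zero]
  · have e : (1 : Γ) = ((1 : G) : Γ) := rfl
    rw [e, theF_mk, inv_one, ← two_mul]
    have := Cfsg.Agent.Lib.Char.Complete.irr_one_ne_zero χ.2
    simpa using this
  · intro t ht hev K hK hmem ρ hρ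
    set T : G := ⟨t, ht⟩
    set R : G := ⟨ρ, hρ⟩
    have hT : 2 ∣ orderOf T := by
      rw [← orderOf_coe]
      exact hev
    have s1 := sum_class_mul_eq_zero χ (hz T hT) R
    have s2 := sum_class_mul_eq_zero χ (hz T⁻¹ (by rw [orderOf_inv]; exact hT)) R⁻¹
    have s3 : ∑ x : G, (if IsConj T⁻¹ x then (χ : G → ℂ) (x * R⁻¹) else 0) =
        ∑ x : G, (if IsConj T x then (χ : G → ℂ) (x * R)⁻¹ else 0) := by
      refine Fintype.sum_equiv (Equiv.inv G) _ _ fun x => ?_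
      have h1 : IsConj T⁻¹ x ↔ IsConj T x⁻¹ := by
        constructor
        · intro hc
          obtain ⟨c, rfl⟩ := isConj_iff.1 hc
          exact isConj_iff.2 ⟨c, by group⟩
        · intro hc
          obtain ⟨c, hc⟩ := isConj_iff.1 hc
          refine isConj_iff.2 ⟨c, ?_⟩
          have h2 : c * T⁻¹ * c⁻¹ = (c * T * c⁻¹)⁻¹ := by group
          rw [h2, hc, inv_inv]
      simp only [Equiv.inv_apply, h1]
      split_ifs
      · have e : (x⁻¹ * R)⁻¹ = R⁻¹ * x := by group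
        rw [e]
        exact comm_of_class hcl _ _
      · rfl
    rw [← List.sum_toFinset _ hK]
    have himg : K.toFinset = ((Finset.univ : Finset G).filter (fun x => IsConj T x)).image
        (fun x : G => (x : Γ)) := by
      ext σ
      simp only [List.mem_toFinset, Finset.mem_image, Finset.mem_filter, Finset.mem_univ, true_and]
      rw [hmem]
      constructor
      · rintro ⟨u, hu, rfl⟩
        refine ⟨(⟨u, hu⟩ : G) * T * (⟨u, hu⟩ : G)⁻¹, ?_, rfl⟩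
        exact isConj_iff.2 ⟨_, rfl⟩
      · rintro ⟨x, hx, rfl⟩
        obtain ⟨c, rfl⟩ := isConj_iff.1 hx
        exact ⟨c, c.2, rfl⟩
    rw [himg, Finset.sum_image (fun a _ b _ hab => Subtype.ext hab)]
    have s4 : ∀ x : G, theF G χ ((x : Γ) * ρ) = (χ : G → ℂ) (x * R) + (χ : G → ℂ) (x * R)⁻¹ := by
      intro x
      have : (x : Γ) * ρ = ((x * R : G) : Γ) := rfl
      rw [this, theF_mk]
    simp_rw [s4]
    rw [Finset.sum_add_distrib, Finset.sum_filter, Finset.sum_filter, s1, ← s3, s2, add_zero]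

end Cfsg.Agent.Lib.MathieuBlock.Relation
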