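import Cfsg.Agent.Lib.MathieuBlock.Relation
import Cfsg.Agent.Lib.FusionSimple.Norm

/-!
# Counting certificates for products with a list of group elements

For a list `xs` of codes and a code `r`, each product `g x * g r` is certified to have even order or
to be conjugate to one of finitely many representatives; the counts are checked in the kernel.
-/

set_option autoImplicit false

namespace Cfsg.Agent.Lib.MathieuBlock.Row

open Cfsg Cfsg.Agent.Lib.Golay.Core Cfsg.Agent.Lib.Golay.Perm Cfsg.Agent.Lib.Golay.Chain
  Cfsg.Agent.Lib.Golay.M24 Cfsg.Agent.Lib.FusionSimple.Cert Cfsg.Agent.Lib.FusionSimple.Closure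
  Cfsg.Agent.Lib.MathieuBlock.Relation

/-- Unpacking a big number into a list of `k` fields of `bits` bits, highest index first. -/
def unpack (bits mask n k : ℕ) : List ℕ :=
  Nat.rec [] (fun i ih => Nat.land (Nat.shiftRight n (Nat.mul bits i)) mask :: ih) k

/-- Iterating the product of `x` and `r` on a point. -/
def iterP (x r k p : ℕ) : ℕ := Nat.rec p (fun _ ih => img x (img r ih)) k

theorem iterP_succ (x r k p : ℕ) : iterP x r (k + 1) p = img x (img r (iterP x r k p)) := rfl

theorem iterP_spec {x r : ℕ} (vx : validPerm x = true) (vr : validPerm r = true) {p : ℕ} (hp : p < 24)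
    (k : ℕ) : iterP x r k p < 24 ∧ ((g x * g r) ^ k) (pt p) = pt (iterP x r k p) := by
  induction k with
  | zero => exact ⟨hp, rfl⟩
  | succ k ih =>
    rw [iterP_succ, pow_succ', Equiv.Perm.mul_apply, ih.2, Equiv.Perm.mul_apply, g_pt vr ih.1,
      g_pt vx (valid_img_lt vr ih.1)]
    exact ⟨valid_img_lt vx (valid_img_lt vr ih.1), rfl⟩

/-- An even order from a swap by a power. -/
theorem two_dvd_orderOf_of_swap {α : Type*} {σ : Equiv.Perm α} {k : ℕ} {a : α} (h1 : (σ ^ k) a ≠ a)
    (h2 : (σ ^ k) ((σ ^ k) a) = a) [Finite α] : 2 ∣ orderOf σ := by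
  by_contra hodd
  set s := σ ^ k with hs
  have hd : orderOf s ∣ orderOf σ := orderOf_pow_dvd k
  have hodd' : ¬ 2 ∣ orderOf s := fun h => hodd (h.trans hd)
  obtain ⟨m, hm⟩ : ∃ m, orderOf s = 2 * m + 1 := by
    refine ⟨orderOf s / 2, ?_⟩
    omega
  have h3 : s ^ (2 * m + 1) = 1 := by
    rw [← hm]
    exact pow_orderOf_eq_one s
  have h4 : ∀ j : ℕ, (s ^ (2 * j)) a = a := by
    intro j
    induction j with
    | zero => rfl
    | succ j ih =>
      have e : s ^ (2 * (j + 1)) = s ^ (2 * j) * (s * s) := by
        rw [mul_add, pow_add]
        rfl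
      rw [e, Equiv.Perm.mul_apply, Equiv.Perm.mul_apply, h2, ih]
  apply h1
  have h5 : (s ^ (2 * m + 1)) a = a := by rw [h3]; rfl
  rw [pow_succ', Equiv.Perm.mul_apply, h4] at h5
  exact h5

/-- Test: a power of the product swaps two points. -/
def singOK (x r e : ℕ) : Bool :=
  cond (Nat.ble 24 (e % 32)) false
    (cond (Nat.beq (iterP x r (e / 32) (e % 32)) (e % 32)) false
      (Nat.beq (iterP x r (e / 32) (iterP x r (e / 32) (e % 32))) (e % 32)))

theorem even_of_singOK {x r e : ℕ} (vx : validPerm x = true) (vr : validPerm r = true)
    (h : singOK x r e = true) : 2 ∣ orderOf (g x * g r) := by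
  unfold singOK at h
  cases h1 : Nat.ble 24 (e % 32) <;> simp only [h1, cond_false, cond_true, Bool.false_eq_true] at h
  have hp : e % 32 < 24 := by
    have : ¬ 24 ≤ e % 32 := fun hc => by
      rw [Nat.ble_eq_true_of_le hc] at h1
      exact Bool.noConfusion h1
    omega
  cases h2 : Nat.beq (iterP x r (e / 32) (e % 32)) (e % 32) <;>
    simp only [h2, cond_false, cond_true, Bool.false_eq_true] at h
  have h3 := Nat.eq_of_beq_eq_true h
  obtain ⟨l1, e1⟩ := iterP_spec vx vr hp (e / 32)
  obtain ⟨l2, e2⟩ := iterP_spec vx vr l1 (e / 32)
  apply two_dvd_orderOf_of_swap (k := e / 32) (a := pt (e % 32))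
  · rw [e1]
    intro hc
    have h4 := pt_injOn l1 hp hc
    rw [h4, Nat.beq_refl] at h2
    exact Bool.noConfusion h2
  · rw [e1, e2, h3]

/-- The entry of a row: `998` for even order, `j` for a conjugate of the `j`-th representative, `999`
for a failure. -/
def entry (inG : ℕ → Bool) (reps : List ℕ) (r x e : ℕ) : ℕ :=
  cond (Nat.blt e 1024) (cond (singOK x r e) 998 999)
    (cond (checkAut (e / 16)) (cond (inG (e / 16))
      (cond (allUpTo (fun i => Nat.beq (img (e / 16) (img x (img r i)))
        (img (nthC reps (e % 16)) (img (e / 16) i))) 24) (e % 16) 999) 999) 999)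

section
variable {Γ : Type*} [Group Γ]

/-- A conjugate in the pointwise form. -/
theorem conj_of_pointwise {w x r s : ℕ} (vw : validPerm w = true) (vx : validPerm x = true)
    (vr : validPerm r = true) (vs : validPerm s = true)
    (h : allUpTo (fun i => Nat.beq (img w (img x (img r i))) (img s (img w i))) 24 = true) :
    g s = g w * (g x * g r) * (g w)⁻¹ := by
  rw [eq_mul_inv_iff_mul_eq]
  refine Equiv.ext fun p => ?_
  have h1 := Nat.eq_of_beq_eq_true (allUpTo_iff.1 h _ (idx_lt p))
  have e1 : (g s * g w) p = pt (img s (img w (idx p))) := by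
    rw [Equiv.Perm.mul_apply, g_apply vw, g_pt vs (valid_img_lt vw (idx_lt p))]
  have e2 : (g w * (g x * g r)) p = pt (img w (img x (img r (idx p)))) := by
    rw [Equiv.Perm.mul_apply, Equiv.Perm.mul_apply, g_apply vr, g_pt vx (valid_img_lt vr (idx_lt p)),
      g_pt vw (valid_img_lt vx (valid_img_lt vr (idx_lt p)))]
  rw [e1, e2, h1]

end

variable {G : Subgroup (Equiv.Perm GolayPt)} {F : Equiv.Perm GolayPt → ℂ} {inG : ℕ → Bool}

theorem entry_even (hF : RelF G F) {reps : List ℕ} {r x e : ℕ} (vx : validPerm x = true)
    (vr : validPerm r = true) (hxG : g x ∈ G) (hrG : g r ∈ G)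
    (h : entry inG reps r x e = 998) : F (g x * g r) = 0 := by
  unfold entry at h
  cases h1 : Nat.blt e 1024
  · simp only [h1, cond_false] at h
    cases h2 : checkAut (e / 16) <;> simp only [h2, cond_false, cond_true] at h
    · exact absurd h (by norm_num)
    cases h3 : inG (e / 16) <;> simp only [h3, cond_false, cond_true] at h
    · exact absurd h (by norm_num)
    cases h4 : allUpTo (fun i => Nat.beq (img (e / 16) (img x (img r i)))
        (img (nthC reps (e % 16)) (img (e / 16) i))) 24 <;> simp only [h4, cond_false, cond_true] at h
    · exact absurd h (by norm_num)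
    · have : e % 16 < 16 := Nat.mod_lt _ (by norm_num)
      omega
  · simp only [h1, cond_true] at h
    cases h2 : singOK x r e
    · rw [h2] at h
      exact absurd h (by norm_num)
    · exact hF.even _ (G.mul_mem hxG hrG) (even_of_singOK vx vr h2)

theorem entry_reg (hF : RelF G F) (hM2 : ∀ c, checkAut c = true → inG c = true → g c ∈ G)
    {reps : List ℕ} (hreps : ∀ s ∈ reps, checkAut s = true) (hlen : reps.length < 998) {r x e j : ℕ}
    (vx : validPerm x = true)
    (vr : validPerm r = true) (hxG : g x ∈ G) (hrG : g r ∈ G) (hj : j < reps.length)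
    (h : entry inG reps r x e = j) : F (g x * g r) = F (g (nthC reps j)) := by
  unfold entry at h
  cases h1 : Nat.blt e 1024
  · simp only [h1, cond_false] at h
    cases h2 : checkAut (e / 16) <;> simp only [h2, cond_false, cond_true] at h
    · omega
    cases h3 : inG (e / 16) <;> simp only [h3, cond_false, cond_true] at h
    · omega
    cases h4 : allUpTo (fun i => Nat.beq (img (e / 16) (img x (img r i)))
        (img (nthC reps (e % 16)) (img (e / 16) i))) 24 <;> simp only [h4, cond_false, cond_true] at h
    · omega
    · subst h
      have hmem : nthC reps (e % 16) ∈ reps := by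
        unfold nthC
        rw [List.getD_eq_getElem _ _ hj]
        exact List.getElem_mem _
      have vs := checkAut_valid (hreps _ hmem)
      have vw := checkAut_valid h2
      have e1 := conj_of_pointwise vw vx vr vs h4
      rw [e1, hF.conj _ (G.mul_mem hxG hrG) _ (hM2 _ h2 h3)]
  · simp only [h1, cond_true] at h
    cases h2 : singOK x r e <;> simp only [h2, cond_false, cond_true] at h <;> omega

/-- Increment the `j`-th counter. -/
def incr : ℕ → List ℕ → List ℕ
  | _, [] => []
  | 0, a :: as => Nat.add a 1 :: as
  | j + 1, a :: as => a :: incr j as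

/-- The value of a list of counters. -/
noncomputable def evalA (v : ℕ → ℂ) : List ℕ → ℂ
  | [] => 0
  | a :: as => (a : ℂ) * v 0 + evalA (fun i => v (i + 1)) as

theorem evalA_incr (j : ℕ) (acc : List ℕ) (v : ℕ → ℂ) (hj : j < acc.length) :
    evalA v (incr j acc) = v j + evalA v acc := by
  induction acc generalizing j v with
  | nil => simp at hj
  | cons a as ih =>
    cases j with
    | zero =>
      show ((Nat.add a 1 : ℕ) : ℂ) * v 0 + evalA (fun i => v (i + 1)) as = _
      rw [evalA]
      push_cast
      ring
    | succ j =>
      show (a : ℂ) * v 0 + evalA (fun i => v (i + 1)) (incr j as) = _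
      rw [ih j (fun i => v (i + 1)) (by simpa using hj), evalA]
      ring

theorem length_incr (j : ℕ) (acc : List ℕ) : (incr j acc).length = acc.length := by
  induction acc generalizing j with
  | nil => cases j <;> rfl
  | cons a as ih =>
    cases j with
    | zero => rfl
    | succ j =>
      show (a :: incr j as).length = _
      rw [List.length_cons, ih, List.length_cons]

/-- Equality of counters. -/
def eqL : List ℕ → List ℕ → Bool
  | [], [] => true
  | a :: as, b :: bs => cond (Nat.beq a b) (eqL as bs) false
  | _, _ => false

theorem eqL_eq {a b : List ℕ} (h : eqL a b = true) : a = b := by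
  induction a generalizing b with
  | nil =>
    cases b with
    | nil => rfl
    | cons _ _ => exact Bool.noConfusion h
  | cons x xs ih =>
    cases b with
    | nil => exact Bool.noConfusion h
    | cons y ys =>
      change cond (Nat.beq x y) (eqL xs ys) false = true at h
      cases h1 : Nat.beq x y <;> simp only [h1, cond_false, cond_true, Bool.false_eq_true] at h
      rw [Nat.eq_of_beq_eq_true h1, ih h]

/-- The check on a part of a row. -/
def rowGo (inG : ℕ → Bool) (reps : List ℕ) (r : ℕ) : List ℕ → List ℕ → List ℕ → List ℕ → Bool
  | [], [], acc, exp => eqL acc exp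
  | x :: xs, e :: es, acc, exp =>
    cond (Nat.beq (entry inG reps r x e) 998) (rowGo inG reps r xs es acc exp)
      (cond (Nat.blt (entry inG reps r x e) reps.length)
        (rowGo inG reps r xs es (incr (entry inG reps r x e) acc) exp) false)
  | _, _, _, _ => false

/-- The representatives as values. -/
noncomputable def vals (F : Equiv.Perm GolayPt → ℂ) (reps : List ℕ) (j : ℕ) : ℂ := F (g (nthC reps j))

theorem rowGo_sound (hF : RelF G F) (hM2 : ∀ c, checkAut c = true → inG c = true → g c ∈ G)
    {reps : List ℕ} (hreps : ∀ s ∈ reps, checkAut s = true) (hlen : reps.length < 998) {r : ℕ}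
    (vr : validPerm r = true) (hrG : g r ∈ G) :
    ∀ (xs es acc exp : List ℕ), (∀ x ∈ xs, validPerm x = true ∧ g x ∈ G) → acc.length = reps.length →
      rowGo inG reps r xs es acc exp = true →
      (xs.map (fun x => F (g x * g r))).sum + evalA (vals F reps) acc = evalA (vals F reps) exp := by
  intro xs
  induction xs with
  | nil =>
    intro es acc exp _ _ h
    cases es with
    | nil =>
      change eqL acc exp = true at h
      rw [eqL_eq h]
      simp
    | cons _ _ => exact Bool.noConfusion h
  | cons x xs ih =>
    intro es acc exp hx hacc h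
    cases es with
    | nil => exact Bool.noConfusion h
    | cons e es =>
      change cond (Nat.beq (entry inG reps r x e) 998) (rowGo inG reps r xs es acc exp)
        (cond (Nat.blt (entry inG reps r x e) reps.length)
          (rowGo inG reps r xs es (incr (entry inG reps r x e) acc) exp) false) = true at h
      obtain ⟨vx, hxG⟩ := hx x List.mem_cons_self
      have hx' : ∀ y ∈ xs, validPerm y = true ∧ g y ∈ G := fun y hy => hx y (List.mem_cons_of_mem _ hy)
      rw [List.map_cons, List.sum_cons]
      cases h1 : Nat.beq (entry inG reps r x e) 998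
      · simp only [h1, cond_false] at h
        cases h2 : Nat.blt (entry inG reps r x e) reps.length <;>
          simp only [h2, cond_false, cond_true, Bool.false_eq_true] at h
        have hj : entry inG reps r x e < reps.length := by
          simpa [Nat.blt_eq] using h2
        have h3 := ih es _ exp hx' (by rw [length_incr, hacc]) h
        rw [evalA_incr _ _ _ (by rw [hacc]; exact hj)] at h3
        rw [← h3, entry_reg hF hM2 hreps hlen vx vr hxG hrG hj rfl]
        simp only [vals]
        ring
      · simp only [h1, cond_true] at h
        rw [entry_even hF vx vr hxG hrG (Nat.eq_of_beq_eq_true h1), zero_add]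
        exact ih es acc exp hx' hacc h

/-- Sum of two lists of counters. -/
def addV : List ℕ → List ℕ → List ℕ
  | a :: as, b :: bs => Nat.add a b :: addV as bs
  | _, _ => []

theorem evalA_addV (a b : List ℕ) (v : ℕ → ℂ) (h : a.length = b.length) :
    evalA v (addV a b) = evalA v a + evalA v b := by
  induction a generalizing b v with
  | nil =>
    cases b with
    | nil => simp [addV, evalA]
    | cons _ _ => simp at h
  | cons x xs ih =>
    cases b with
    | nil => simp at h
    | cons y ys =>
      show ((Nat.add x y : ℕ) : ℂ) * v 0 + evalA (fun i => v (i + 1)) (addV xs ys) = _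
      rw [ih ys _ (by simpa using h), evalA, evalA]
      show ((x + y : ℕ) : ℂ) * v 0 + _ = _
      push_cast
      ring

/-- Zero counters. -/
def zeros (k : ℕ) : List ℕ := List.replicate k 0

theorem evalA_zeros (k : ℕ) (v : ℕ → ℂ) : evalA v (zeros k) = 0 := by
  induction k generalizing v with
  | zero => rfl
  | succ k ih =>
    show ((0 : ℕ) : ℂ) * v 0 + evalA (fun i => v (i + 1)) (zeros k) = 0
    rw [ih]
    simp

/-- The check on a row, chunk by chunk, with the counts of each chunk given. -/
def rowAll (inG : ℕ → Bool) (reps : List ℕ) (r : ℕ) : List (List ℕ) → List (List ℕ) → List (List ℕ) → Bool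
  | [], [], [] => true
  | C :: Cs, W :: Ws, E :: Es =>
    cond (rowGo inG reps r C W (zeros reps.length) E)
      (cond (Nat.beq E.length reps.length) (rowAll inG reps r Cs Ws Es) false) false
  | _, _, _ => false

/-- The total of the counts. -/
def totalV (k : ℕ) (Es : List (List ℕ)) : List ℕ :=
  List.rec (zeros k) (fun E _ ih => addV E ih) Es

theorem length_addV (a b : List ℕ) (h : a.length = b.length) : (addV a b).length = a.length := by
  induction a generalizing b with
  | nil => cases b <;> rfl
  | cons x xs ih =>
    cases b with
    | nil => simp at h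
    | cons y ys =>
      show (Nat.add x y :: addV xs ys).length = _
      rw [List.length_cons, ih ys (by simpa using h), List.length_cons]

/-- The value of the sum over the row. -/
theorem rowAll_sound (hF : RelF G F) (hM2 : ∀ c, checkAut c = true → inG c = true → g c ∈ G)
    {reps : List ℕ} (hreps : ∀ s ∈ reps, checkAut s = true) (hlen : reps.length < 998) {r : ℕ}
    (vr : validPerm r = true) (hrG : g r ∈ G) :
    ∀ (Cs Ws Es : List (List ℕ)), (∀ x ∈ Cs.flatten, validPerm x = true ∧ g x ∈ G) →
      rowAll inG reps r Cs Ws Es = true →
      (totalV reps.length Es).length = reps.length ∧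
      (Cs.flatten.map (fun x => F (g x * g r))).sum = evalA (vals F reps) (totalV reps.length Es) := by
  intro Cs
  induction Cs with
  | nil =>
    intro Ws Es _ h
    cases Ws with
    | nil =>
      cases Es with
      | nil =>
        refine ⟨by simp [totalV, zeros], ?_⟩
        show (0 : ℂ) = _
        exact (evalA_zeros _ _).symm
      | cons _ _ => exact Bool.noConfusion h
    | cons _ _ => cases Es <;> exact Bool.noConfusion h
  | cons C Cs ih =>
    intro Ws Es hx h
    cases Ws with
    | nil => cases Es <;> exact Bool.noConfusion h
    | cons W Ws =>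
      cases Es with
      | nil => exact Bool.noConfusion h
      | cons E Es =>
        change cond (rowGo inG reps r C W (zeros reps.length) E)
          (cond (Nat.beq E.length reps.length) (rowAll inG reps r Cs Ws Es) false) false = true at h
        cases h1 : rowGo inG reps r C W (zeros reps.length) E <;>
          simp only [h1, cond_false, cond_true, Bool.false_eq_true] at h
        cases h2 : Nat.beq E.length reps.length <;>
          simp only [h2, cond_false, cond_true, Bool.false_eq_true] at h
        rw [List.flatten_cons] at hx ⊢
        obtain ⟨h3, h4⟩ := ih Ws Es (fun x hx' => hx x (List.mem_append_right _ hx')) h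
        have h5 := rowGo_sound hF hM2 hreps hlen vr hrG C W _ E
          (fun x hx' => hx x (List.mem_append_left _ hx')) (by simp [zeros]) h1
        rw [evalA_zeros, add_zero] at h5
        have hEl : E.length = reps.length := Nat.eq_of_beq_eq_true h2
        have hE : (totalV reps.length (E :: Es)) = addV E (totalV reps.length Es) := rfl
        refine ⟨by rw [hE, length_addV _ _ (by rw [hEl, h3]), hEl], ?_⟩
        rw [List.map_append, List.sum_append, h5, h4, hE, evalA_addV _ _ _ (by rw [hEl, h3])]

end Cfsg.Agent.Lib.MathieuBlock.Row
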